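import Cfsg.Agent.Lib.Compute.Mult.ONH.DefsU

/-!
# The kernel checks of the table on `10752` points
-/

set_option autoImplicit false
set_option maxRecDepth 100000

namespace Cfsg.Agent.Lib.Compute.Mult.ONH

open Cfsg.Agent.Lib.Compute.PermCert Cfsg.Agent.Lib.Compute.PeelCert Cfsg.Agent.Lib.Compute.CoverCert
open Cfsg.Agent.Lib.Compute.SchurLin (flp expV unitV)

theorem tab_ok : allB tabOK 10752 = true := by decide +kernel
theorem rels_ok : relsOK tG 2 10752 rkG formG WW offC 2 BB 17 (7 + 0) 9 relL = true := by decide +kernel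
theorem ord_ok : cmbOK (relVecs BB (7 + 0) relL) ordP ordM (unitV 6 2) = true := by decide +kernel
theorem tgt_ok : tgtL.all (tgtOK (relVecs BB (7 + 0) relL) 6) = true := by decide +kernel
theorem cov_ok : ∀ j < 7 + 0, j = 6 ∨ j ∈ tgtL.map Prod.fst := by decide +kernel
theorem hoff_ok : bdB BB 131072 (7 + 0) offC = true := by decide +kernel
theorem hE_ok : EG = BB ^ (7 + 0) := by decide +kernel
theorem len_ok : ∀ w ∈ WW, w.length ≤ 209 := by decide +kernel
theorem lt_ok : ∀ w ∈ WW, ∀ x ∈ w, x < 2 * 2 := by decide +kernel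
theorem len_WW : WW.length = 9 := by decide +kernel
theorem exv_ok : ∀ k < 2, ∀ j < 2, expV ((WW.getD k []).dropLast) j = 0 := by decide +kernel
theorem exa_ok : ∀ k < 2, WW.getD k [] = (WW.getD k []).dropLast ++ [2 * k + 1] := by decide +kernel
theorem end_ok : ∀ k < 9, allB (endOK k) 10752 = true := by decide +kernel

end Cfsg.Agent.Lib.Compute.Mult.ONH
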