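import Cfsg.Agent.Lib.Compute.Mult.ONH.DataU
import Cfsg.Agent.Lib.Compute.CoverCert
import Cfsg.Agent.Lib.Compute.PresTransfer
import Cfsg.Agent.Lib.Compute.StemQuot
import Cfsg.Agent.Lib.Compute.Mult.Tools

/-!
# The table on `10752` points and the linear forms of its labels
-/

set_option autoImplicit false

namespace Cfsg.Agent.Lib.Compute.Mult.ONH

open Cfsg.Agent.Lib.Compute.PermCert Cfsg.Agent.Lib.Compute.PeelCert Cfsg.Agent.Lib.Compute.CoverCert
open Cfsg.Agent.Lib.Compute.SchurLin (flp expV walkEnd)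
open Cfsg.Agent.Lib.Compute.ToddCoxeterCore (frc)
open Cfsg.Agent.Lib.Compute.ToddCoxeterPresented (TT)

noncomputable section

/-- The table. -/
def tG (i x : Nat) : Nat := Cfsg.Agent.Lib.Compute.ToddCoxeterPresented.TT.fld tBig (nat_lit 16) (nat_lit 1023) (nat_lit 65535) (Nat.add (Nat.mul 4 i) x)
/-- The parents and letters. -/
def plG (i : Nat) : Nat := Cfsg.Agent.Lib.Compute.ToddCoxeterPresented.TT.fld plBig (nat_lit 24) (nat_lit 1023) (nat_lit 16777215) (i)
/-- The parents. -/
def parG (i : Nat) : Nat := Nat.land (plG i) 65535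
/-- The letters to the parents. -/
def ltG (i : Nat) : Nat := Nat.shiftRight (plG i) 16
/-- The data of a label. -/
def varE (u : Nat) : Nat := Cfsg.Agent.Lib.Compute.ToddCoxeterPresented.TT.fld varBig (nat_lit 44) (nat_lit 1023) (nat_lit 17592186044415) (u)
/-- The rank of a label. -/
def rkG (u : Nat) : Nat := Nat.land (varE u) 1048575
/-- The relator of a label. -/
def kkG (u : Nat) : Nat := Nat.land (Nat.shiftRight (varE u) 20) 255
/-- The point of a label. -/
def ssG (u : Nat) : Nat := Nat.shiftRight (varE u) 28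
/-- The form of a rank. -/
def formG (r : Nat) : Nat := Cfsg.Agent.Lib.Compute.ToddCoxeterPresented.TT.fld formBig (nat_lit 175) (nat_lit 63) (nat_lit 0x7fffffffffffffffffffffffffffffffffffffffffff) r
/-- The label parameters. -/
def pVG (j : Nat) : Nat := pVL.getD j 0
/-- The base. -/
def BB : Nat := 33554432
/-- The error digit. -/
def EG : Nat := Nat.pow BB 7

/-- The check of a label. -/
def varOK (u : Nat) : Bool :=
  Nat.blt (ssG u) 10752 && bdB BB 131072 7 (formG (rkG u)) &&
    chkVar tG 2 parG ltG rkG formG kkG ssG pVG WW offC EG 2 BB 9 7 0 u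

/-- The check of the table at a point. -/
def tabOK (i : Nat) : Bool :=
  allB (fun x => Nat.blt (tG i x) 10752 && Nat.beq (tG (tG i x) (flp x)) i) 4 &&
    (Nat.beq i 0 || (Nat.blt (parG i) i && Nat.blt (ltG i) 4 && Nat.beq (tG (parG i) (ltG i)) i))

/-- A forced walk. -/
def wendB (w : List Nat) (i0 : Nat) : Nat → Bool :=
  List.rec (motive := fun _ => Nat → Bool) (fun i => Nat.beq i i0) (fun x _ ih i => frc (tG i x) ih) w

/-- A word is closed at a point. -/
def endOK (k i : Nat) : Bool := wendB (WW.getD k []) i i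

end

theorem wendB_spec (w : List Nat) (i0 i : Nat) (h : wendB w i0 i = true) : walkEnd tG i w = i0 := by
  induction w generalizing i with
  | nil => exact Nat.eq_of_beq_eq_true h
  | cons x w ih =>
    have h1 : wendB (x :: w) i0 i = frc (tG i x) (wendB w i0) := rfl
    rw [h1, Cfsg.Agent.Lib.Compute.ToddCoxeterCore.frc_eq] at h
    exact ih _ h

end Cfsg.Agent.Lib.Compute.Mult.ONH
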