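import Cfsg.Agent.Lib.Compute.Mult.ONH.VarU
import Cfsg.Agent.Lib.Compute.Mult.ONH.CheckU
import Cfsg.Agent.Lib.Compute.Mult.PLocal2
import Cfsg.Agent.Lib.Compute.TC.ONHT.Final
import Cfsg.Agent.Lib.Compute.TCChain

/-!
# A perfect group of order `10752`, with a multiplier of order two

The table of the regular action with its edge labels.
-/

set_option autoImplicit false
set_option maxRecDepth 100000

namespace Cfsg.Agent.Lib.Compute.Mult.ONH

open Cfsg
open Cfsg.Agent.Lib.Compute.PermCert Cfsg.Agent.Lib.Compute.PeelCert Cfsg.Agent.Lib.Compute.CoverCert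
open Cfsg.Agent.Lib.Compute.SchurLin Cfsg.Agent.Lib.Compute.SchurU Cfsg.Agent.Lib.Compute.PresTransfer
open Cfsg.Agent.Lib.Compute.Mult.PLocal
open Cfsg.Agent.Lib.Compute.ToddCoxeterCore (wordEl wordEl_nil wordEl_cons wordEl_append)
open Cfsg.Agent.Lib.Compute.ToddCoxeterPresented (toLetters letterOf)
open Cfsg.Agent.Lib.Compute.TC

/-- The relators. -/
abbrev RS : Set (FreeGroup (Fin 2)) := ONHT.RR

/-- The group. -/
abbrev XX : Type := PresentedGroup RS

/-- The generators, numbered. -/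
def eG : Fin 2 ≃ Fin 2 := Equiv.refl _

/-- The letters. -/
def lets : List (Fin 2 × Bool) := [(0, true), (0, false), (1, true), (1, false)]

theorem hcode : ∀ (j : Fin 2) (b : Bool), letterOf lets (eG j, b) = 2 * j.val + (if b then 0 else 1) := by
  decide

theorem hgens : ∀ a, (a, true) ∈ lets := by
  decide

/-- The generators in the group. -/
noncomputable abbrev g : ℕ → XX := gP eG RS

/-- The letters of a relator. -/
def Lt : FreeGroup (Fin 2) → List ℕ := LtP eG lets

theorem hLt (r : FreeGroup (Fin 2)) : wordEl (ltr (gF 2)) (Lt r) = r := hLtP eG lets hcode r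

theorem hLtlt (r : FreeGroup (Fin 2)) : ∀ x ∈ Lt r, x < 2 * 2 := hLtPlt eG lets (by decide) hgens r

theorem Lt_mem : ∀ r ∈ ONHT.rsL, toLetters lets r ∈ WW.drop 2 := by decide +kernel

theorem card_X : Nat.card XX = 10752 := Cfsg.Agent.Lib.Compute.TCFast.card_of_index rfl ONHT.index

instance finite_X : Finite XX := Nat.finite_of_card_ne_zero (by rw [card_X]; norm_num)

/-! ### The table -/

theorem tab_spec {i : ℕ} (hi : i < 10752) :
    (∀ x < 4, tG i x < 10752 ∧ tG (tG i x) (flp x) = i) ∧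
      (i ≠ 0 → parG i < i ∧ ltG i < 4 ∧ tG (parG i) (ltG i) = i) := by
  have h := (allB_iff _ _).1 tab_ok i hi
  simp only [tabOK, Bool.and_eq_true, Bool.or_eq_true, Nat.beq_eq, Nat.blt_eq] at h
  obtain ⟨h1, h2⟩ := h
  constructor
  · intro x hx
    have h3 := (allB_iff _ _).1 h1 x hx
    simp only [Bool.and_eq_true, Nat.beq_eq, Nat.blt_eq] at h3
    exact h3
  · intro h0
    rcases h2 with h2 | h2
    · exact absurd h2 h0
    · exact ⟨h2.1.1, h2.1.2, h2.2⟩

theorem pTab : PTab tG 2 10752 :=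
  ⟨fun i hi x hx => ((tab_spec hi).1 x hx).1, fun i hi x hx => ((tab_spec hi).1 x hx).2⟩

theorem hletW : ∀ k, ∀ x ∈ WW.getD k [], x < 2 * 2 := by
  intro k x hx
  rcases getD_mem_or (W := WW) k with h | h
  · exact lt_ok _ h x hx
  · rw [h] at hx
    simp at hx

theorem hlenW : ∀ k, (WW.getD k []).length ≤ 209 := by
  intro k
  rcases getD_mem_or (W := WW) k with h | h
  · exact len_ok _ h
  · rw [h]
    simp

theorem hendW (k : ℕ) : ∀ i < 10752, walkEnd tG i (WW.getD k []) = i := by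
  intro i hi
  by_cases hk : k < 9
  · exact wendB_spec _ _ _ ((allB_iff _ _).1 (end_ok k hk) i hi)
  · have : WW.getD k [] = [] := by
      rw [List.getD_eq_default]
      rw [len_WW]
      omega
    rw [this]
    rfl

theorem hact_rows : ∀ r ∈ RP eG RS, ∀ i < 10752, walkEnd tG i (Lt r) = i := by
  intro r hr i hi
  have h1 : (FreeGroup.freeGroupCongr eG r) ∈ ONHT.rsL := hr
  have h2 := Lt_mem _ h1
  obtain ⟨k, hk, e⟩ := List.mem_iff_getElem.1 h2
  have h3 : Lt r = WW.getD (k + 2) [] := by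
    show toLetters lets (FreeGroup.freeGroupCongr eG r) = _
    rw [← e, List.getElem_drop, List.getD_eq_getElem _ _ (by
      rw [List.length_drop] at hk
      omega)]
    congr 1
    omega
  rw [h3]
  exact hendW _ i hi

theorem exists_act : ∃ ρ : XX →* Equiv.Perm (Fin 10752), ∀ j < 2, ρ (g j) = tp pTab j :=
  exists_action (fP eG RS) (fP_surj eG RS) (fP_of eG RS) (RP eG RS) (fP_ker eG RS) pTab Lt hLt hLtlt hact_rows

theorem hparT : ∀ i < 10752, i ≠ 0 → parG i < i ∧ ltG i < 4 ∧ tG (parG i) (ltG i) = i :=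
  fun i hi h0 => (tab_spec hi).2 h0

/-- The stabilizer of the first point is trivial. -/
theorem stab_triv (ρ : XX →* Equiv.Perm (Fin 10752)) (hρ : ∀ j < 2, ρ (g j) = tp pTab j) :
    Nat.card (@MulAction.stabilizer _ (Fin 10752) _ (MulAction.compHom (Fin 10752) ρ) ⟨0, by norm_num⟩) = 1 := by
  have h := card_stabilizer_of_table (g := g) pTab (by norm_num) ρ hρ hparT
  rw [card_X] at h
  omega

theorem rho_inj (ρ : XX →* Equiv.Perm (Fin 10752)) (hρ : ∀ j < 2, ρ (g j) = tp pTab j) : Function.Injective ρ := by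
  rw [← MonoidHom.ker_eq_bot_iff, eq_bot_iff]
  intro x hx
  have h := stab_triv ρ hρ
  letI : MulAction XX (Fin 10752) := MulAction.compHom (Fin 10752) ρ
  have hmem : x ∈ MulAction.stabilizer XX (⟨0, by norm_num⟩ : Fin 10752) := by
    rw [MulAction.mem_stabilizer_iff]
    show ρ x _ = _
    rw [MonoidHom.mem_ker.mp hx]
    rfl
  have h1 := (Nat.card_eq_one_iff_unique.mp h).1
  have h2 := h1.elim ⟨x, hmem⟩ 1
  simpa using congrArg Subtype.val h2

theorem hrelW (k : ℕ) : wordEl (ltr g) (WW.getD k []) = 1 := by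
  obtain ⟨ρ, hρ⟩ := exists_act
  exact word_one_of_inj pTab ρ hρ (rho_inj ρ hρ) (hletW k) (hendW k)

theorem exW (k : ℕ) (hk : k < 2) : ∃ C : List ℕ, WW.getD k [] = C ++ [2 * k + 1] := ⟨_, exa_ok k hk⟩

theorem var_spec {u : ℕ} (hu : u < 10752 * 2) : ssG u < 10752 ∧ bdB BB 131072 (7 + 0) (formG (rkG u)) = true ∧
    chkVar tG 2 parG ltG rkG formG kkG ssG pVG WW offC EG 2 BB 9 7 0 u = true := by
  have h := (allB_iff _ _).1 varR_all u hu
  simp only [varOK, Bool.and_eq_true, Nat.blt_eq] at h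
  exact ⟨h.1.1, h.1.2, h.2⟩

theorem BB_eq : BB = 33554432 := rfl

/-- The word of an involution. -/
def uW : List ℕ := [0, 2, 0, 3, 0, 2, 0, 3, 0, 2, 0, 3, 0, 2, 0, 3, 0, 2, 0, 3, 0, 2, 0, 3, 0, 2, 0, 3, 0, 2, 0, 3]

/-- The word of an involution. -/
def vW : List ℕ := [0]

/-- The word which generates the multiplier. -/
def tW : List ℕ := vW ++ vW ++ uW ++ uW

theorem tW_eq : WW.getD 8 [] = tW := by decide +kernel

theorem commutator_X : commutator XX = ⊤ := by
  refine commutator_eq_top_of_words (n := 2) (g := g) (C := fun j => (WW.getD j []).dropLast) (gP_gen eG RS) ?_ ?_ exv_ok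
  · intro j hj
    obtain ⟨C, hCe⟩ := exW j hj
    have h1 := hrelW j
    rw [hCe, wordEl_append] at h1
    rw [hCe, List.dropLast_concat]
    have h2 : ltr g (2 * j + 1) = (g j)⁻¹ := by
      have h4 : (2 * j + 1) / 2 = j := by omega
      simp [ltr, h4]
    rw [wordEl_cons, wordEl_nil, one_mul, h2] at h1
    exact (inv_mul_eq_one.1 h1).symm
  · intro j _ x hx
    exact hletW j x (List.mem_of_mem_dropLast hx)

/-- A stem extension: the kernel is generated by the value of the word, of order at most two. -/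
theorem upper_Y (Γ' : Type) [Group Γ'] [Finite Γ'] (σ : Γ' →* XX) (hstem : IsStemExtension σ) :
    ∃ Y : ℕ → Γ', (∀ j, σ (Y j) = g j) ∧ (wordEl (ltr Y) tW) ^ 2 = 1 ∧
      ∀ x ∈ σ.ker, x ∈ Subgroup.zpowers (wordEl (ltr Y) tW) := by
  obtain ⟨ρ, hρ⟩ := exists_act
  letI : MulAction XX (Fin 10752) := MulAction.compHom (Fin 10752) ρ
  have tab := tab_of_action (g := g) pTab (by norm_num) ρ hρ hparT
  have hst := stab_triv ρ hρ
  have h1 := (Nat.card_eq_one_iff_unique.mp hst).1
  obtain ⟨Y, z, rr, hY, c, hrr⟩ := exists_cocy_Y hstem tab (gP_gen eG RS) hletW hrelW exW exv_ok 1 (by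
    intro l
    have h2 : l = 1 := h1.elim _ _
    rw [h2]
    simp)
  let _ : CommGroup σ.ker :=
    { (inferInstance : Group σ.ker) with
      mul_comm := fun p q => Subtype.ext (Subgroup.mem_center_iff.mp (hstem.2.1 p.2) (q : Γ')).symm }
  obtain ⟨hu, hgen⟩ := peel_final_q (A := σ.ker) (par := parG) (lt := ltG) (rk := rkG) (formT := formG) (kk := kkG)
    (ss := ssG) (pV := pVG) (off := offC) (E := EG) (B := BB) (kmax := 9) (R := 7) (c0 := 0) (a := 131072) (Lm := 209)
    (a2 := 17) c (by norm_num) pTab.hlt hletW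
    (fun i hi h0 => by
      obtain ⟨a, b, c⟩ := hparT i hi h0
      exact ⟨by omega, b, c⟩)
    (by rw [BB_eq]; norm_num) hE_ok (by norm_num) (fun u hu => (var_spec hu).1) (by norm_num) (by rw [BB_eq]; norm_num)
    (by rw [BB_eq]; norm_num) hlenW hoff_ok (fun u hu => (var_spec hu).2.1) (fun u hu => (var_spec hu).2.2) rels_ok ord_ok
    tgt_ok cov_ok
  have hq : qOf z rr 2 10752 2 7 pVG 6 = rr 8 := by
    simp [qOf]
  rw [hq] at hu hgen
  rw [← tW_eq]
  refine ⟨Y, hY, ?_, ?_⟩
  · have h3 := congrArg Subtype.val hu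
    rw [show wordEl (ltr Y) (WW.getD 8 []) = ((rr 8 : σ.ker) : Γ') from (hrr 8).symm]
    simpa using h3
  · intro x hx
    obtain ⟨k, hk⟩ := hgen ⟨x, hx⟩
    refine ⟨k, ?_⟩
    have h3 := congrArg Subtype.val hk
    rw [show wordEl (ltr Y) (WW.getD 8 []) = ((rr 8 : σ.ker) : Γ') from (hrr 8).symm]
    simpa using h3

end Cfsg.Agent.Lib.Compute.Mult.ONH
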